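import Cfsg.Agent.Lib.Inv.RankOneK

/-! The rank-one set-up: translation between points and cosets. -/

set_option autoImplicit false

namespace Cfsg.Lib.Inv

open Subgroup Cfsg.Lib.Transfer MulAction

variable {G Ω : Type*} [Group G] [MulAction G Ω] {a : Ω} {t : G} {Q : Subgroup G}

theorem setup_isPretransitive (hS : IsRankOneSetup G Ω a t Q) : IsPretransitive G Ω := by
  have h2 := hS.two_transitive
  rw [MulAction.is_two_pretransitive_iff] at h2
  refine ⟨fun b c => ?_⟩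
  by_cases e : b = c
  · exact ⟨1, by rw [e, one_smul]⟩
  · obtain ⟨g, hg, -⟩ := h2 (a := b) (b := c) (c := c) (d := b) e (Ne.symm e)
    exact ⟨g, hg⟩

theorem setup_normalCore_eq_bot [FaithfulSMul G Ω] (hS : IsRankOneSetup G Ω a t Q) :
    (stabilizer G a).normalCore = ⊥ :=
  eq_bot_iff.2 fun g hg => eq_of_smul_eq_smul (α := Ω) fun b => by
    obtain ⟨x, rfl⟩ := (setup_isPretransitive hS).exists_smul_eq a b
    have : (x⁻¹ * g * x⁻¹⁻¹) • a = a := hg x⁻¹
    rw [inv_inv, mul_smul, mul_smul, inv_smul_eq_iff] at this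
    rw [this, one_smul]

theorem setup_exists_cent (hS : IsRankOneSetup G Ω a t Q) {X : Set G}
    (hX : X ⊆ (stabilizer G a ⊓ stabilizer G (t • a) : Subgroup G)) {b : Ω} (hb : b ≠ a)
    (hf : ∀ x ∈ X, x • b = b) : ∃ q ∈ Q, q ∈ centralizer X ∧ b = q • t • a := by
  obtain ⟨g, rfl⟩ := (setup_isPretransitive hS).exists_smul_eq a b
  obtain ⟨q, hq, y, hy, rfl⟩ := (ro_of_setup hS).canon' hb
  have e : (q * t * y) • a = (q * t) • a := by rw [mul_smul, show y • a = a from hy]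
  refine ⟨q, hq, fun x hx => (ro_of_setup hS).comm_of_fix hq (hX hx) ?_, by rw [e, mul_smul]⟩
  rw [mem_stabilizer_iff, mul_smul, mul_smul, ← e, hf x hx, e, inv_smul_smul]

theorem setup_exists_cent_ne_one (hS : IsRankOneSetup G Ω a t Q) {X : Set G}
    (hX : X ⊆ (stabilizer G a ⊓ stabilizer G (t • a) : Subgroup G))
    (h3 : ∃ b c d : Ω, b ≠ c ∧ b ≠ d ∧ c ≠ d ∧ ∀ x ∈ X, x • b = b ∧ x • c = c ∧ x • d = d) :
    ∃ q ∈ Q, q ≠ 1 ∧ q ∈ centralizer X := by
  obtain ⟨b, hba, hbt, hb⟩ : ∃ b, b ≠ a ∧ b ≠ t • a ∧ ∀ x ∈ X, x • b = b := by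
    obtain ⟨b, c, d, h1, h2, h3, h4⟩ := h3
    by_contra! hn
    have key : ∀ e, (∀ x ∈ X, x • e = e) → e = a ∨ e = t • a := fun e he => by
      by_contra! h5
      obtain ⟨x, hx, h6⟩ := hn e h5.1 h5.2
      exact h6 (he x hx)
    rcases key b fun x hx => (h4 x hx).1 with e1 | e1 <;>
    rcases key c fun x hx => (h4 x hx).2.1 with e2 | e2 <;>
    rcases key d fun x hx => (h4 x hx).2.2 with e3 | e3 <;> simp_all
  obtain ⟨q, hq, hc, rfl⟩ := setup_exists_cent hS hX hba hb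
  exact ⟨q, hq, fun e => hbt (by rw [e, one_smul]), hc⟩

end Cfsg.Lib.Inv
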